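import Cfsg.Agent.Theta.Counts

/-!
# Real positivity from integral positivity; the counts
-/

set_option autoImplicit false

namespace Cfsg.Agent.Theta

open Matrix

theorem QF_cont {n : ℕ} (A : Matrix (Fin n) (Fin n) ℝ) : Continuous (QF A) := by
  unfold QF
  fun_prop

theorem QF_smul {n : ℕ} (A : Matrix (Fin n) (Fin n) ℝ) (t : ℝ) (x : Fin n → ℝ) : QF A (fun i => t * x i) = t ^ 2 * QF A x := by
  unfold QF
  rw [Finset.mul_sum]
  apply Finset.sum_congr rfl
  intro i _
  rw [Finset.mul_sum]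
  exact Finset.sum_congr rfl (fun j _ => by ring)

theorem QF_add {n : ℕ} {A : Matrix (Fin n) (Fin n) ℝ} (hA : ∀ i j, A i j = A j i) (x y : Fin n → ℝ) :
    QF A (fun i => x i + y i) = QF A x + 2 * ∑ i, y i * (∑ j, A i j * x j) + QF A y := by
  have h1 : ∑ i, y i * (∑ j, A i j * x j) = ∑ i, ∑ j, y i * A i j * x j := by
    apply Finset.sum_congr rfl
    intro i _
    rw [Finset.mul_sum]
    exact Finset.sum_congr rfl (fun j _ => by ring)
  have h2 : ∑ i, ∑ j, x i * A i j * y j = ∑ i, ∑ j, y i * A i j * x j := by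
    rw [Finset.sum_comm]
    apply Finset.sum_congr rfl
    intro i _
    apply Finset.sum_congr rfl
    intro j _
    rw [hA j i]; ring
  rw [h1, two_mul]
  nth_rw 1 [← h2]
  unfold QF
  simp only [← Finset.sum_add_distrib]
  apply Finset.sum_congr rfl
  intro i _
  apply Finset.sum_congr rfl
  intro j _
  ring

/-- nonnegativity on real vectors from integral vectors -/
theorem nonneg_of_int {n : ℕ} {A : Matrix (Fin n) (Fin n) ℝ} (h : ∀ x : Fin n → ℤ, 0 ≤ QF A (fun i => (x i : ℝ)))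
    (x : Fin n → ℝ) : 0 ≤ QF A x := by
  have hcl : IsClosed {x : Fin n → ℝ | 0 ≤ QF A x} := isClosed_le continuous_const (QF_cont A)
  have hd : Dense (Set.univ.pi fun _ : Fin n => Set.range ((↑) : ℚ → ℝ)) :=
    dense_pi _ (fun i _ => Rat.denseRange_cast)
  have hsub : (Set.univ.pi fun _ : Fin n => Set.range ((↑) : ℚ → ℝ)) ⊆ {x : Fin n → ℝ | 0 ≤ QF A x} := by
    intro y hy
    rw [Set.mem_univ_pi] at hy
    choose q hq using hy
    -- common denominator
    set N : ℕ := ∏ i, (q i).den with hN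
    have hN0 : N ≠ 0 := Finset.prod_ne_zero_iff.2 (fun i _ => (q i).den_nz)
    have hint : ∀ i, ∃ k : ℤ, (N : ℝ) * y i = k := by
      intro i
      obtain ⟨m, hm⟩ := Finset.dvd_prod_of_mem (fun i => (q i).den) (Finset.mem_univ i)
      refine ⟨m * (q i).num, ?_⟩
      rw [← hq i, hN, hm]
      have h1 : ((q i : ℚ) : ℝ) = ((q i).num : ℝ) / ((q i).den : ℝ) := by
        rw [Rat.cast_def]
      rw [h1]
      have h2 : ((q i).den : ℝ) ≠ 0 := by exact_mod_cast (q i).den_nz
      push_cast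
      field_simp
    choose k hk using hint
    have h3 := h k
    have h4 : (fun i => ((k i : ℤ) : ℝ)) = fun i => (N : ℝ) * y i := by
      funext i; exact (hk i).symm
    rw [h4, QF_smul] at h3
    have h5 : (0 : ℝ) < (N : ℝ) ^ 2 := by positivity
    exact nonneg_of_mul_nonneg_right h3 h5
  have hall : closure (Set.univ.pi fun _ : Fin n => Set.range ((↑) : ℚ → ℝ)) ⊆ {x : Fin n → ℝ | 0 ≤ QF A x} :=
    hcl.closure_subset_iff.2 hsub
  exact hall (hd x)

theorem pd_of_int {n : ℕ} {A : Matrix (Fin n) (Fin n) ℝ} (hA : ∀ i j, A i j = A j i)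
    (h : ∀ x : Fin n → ℤ, 0 ≤ QF A (fun i => (x i : ℝ))) (hdet : A.det ≠ 0) : PD A := by
  refine ⟨hA, fun x hx => ?_⟩
  have h0 := nonneg_of_int h
  rcases (h0 x).lt_or_eq with h1 | h1
  · exact h1
  · exfalso
    apply hx
    have key : ∀ y : Fin n → ℝ, ∑ i, y i * (∑ j, A i j * x j) = 0 := by
      intro y
      set c := ∑ i, y i * (∑ j, A i j * x j) with hc
      by_contra hne
      have h2 : ∀ t : ℝ, 0 ≤ 2 * t * c + t ^ 2 * QF A y := by
        intro t
        have h3 := h0 (fun i => x i + t * y i)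
        have h4 := QF_add hA x (fun i => t * y i)
        rw [h4, QF_smul, ← h1] at h3
        have h5 : ∑ i, t * y i * (∑ j, A i j * x j) = t * c := by
          rw [hc, Finset.mul_sum]
          exact Finset.sum_congr rfl (fun i _ => by ring)
        rw [h5] at h3
        linarith
      have hy := h0 y
      rcases hy.lt_or_eq with h3 | h3
      · have h4 := h2 (-c / QF A y)
        have h5 : 2 * (-c / QF A y) * c + (-c / QF A y) ^ 2 * QF A y = -(c ^ 2 / QF A y) := by
          field_simp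
          ring
        rw [h5] at h4
        have h6 : 0 < c ^ 2 / QF A y := by positivity
        linarith
      · have h4 := h2 (-c)
        rw [← h3] at h4
        have h6 : 0 < c ^ 2 := by positivity
        nlinarith
    have hv : A.mulVec x = 0 := by
      funext i
      have := key (Pi.single i 1)
      rw [Finset.sum_eq_single i] at this
      · rw [Pi.single_eq_same, one_mul] at this
        exact this
      · intro j _ hj; rw [Pi.single_eq_of_ne hj, zero_mul]
      · intro hn; exact absurd (Finset.mem_univ _) hn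
    by_contra hx'
    exact hdet (Matrix.exists_mulVec_eq_zero_iff.1 ⟨x, hx', hv⟩)

theorem eu_of {B : Matrix (Fin 24) (Fin 24) ℤ} (hsymm : B.IsSymm) (hpos : ∀ x : Fin 24 → ℤ, x ≠ 0 → 0 < x ⬝ᵥ (B *ᵥ x))
    (heven : ∀ x : Fin 24 → ℤ, (2 : ℤ) ∣ x ⬝ᵥ (B *ᵥ x)) (hdet : B.det = 1) : EU B := by
  have hs : ∀ i j, B i j = B j i := fun i j => (hsymm.apply i j).symm
  refine ⟨hs, ?_, heven, by rw [hdet]; exact isUnit_one⟩
  apply pd_of_int
  · intro i j
    rw [Matrix.map_apply, Matrix.map_apply, hs i j]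
  · intro x
    rw [QF_map]
    have : 0 ≤ qf B x := by
      by_cases hx : x = 0
      · subst hx; simp [qf]
      · exact (hpos x hx).le
    exact_mod_cast this
  · have : (B.map (Int.cast : ℤ → ℝ)).det = ((B.det : ℤ) : ℝ) := by
      have := (Int.castRingHom ℝ).map_det B
      simpa using this.symm
    rw [this, hdet]
    norm_num

theorem cnt_eq {B : Matrix (Fin 24) (Fin 24) ℤ} (hB : EU B) (k : ℕ) : cnt B k = {x : Fin 24 → ℤ | x ⬝ᵥ (B *ᵥ x) = 2 * (k : ℤ)}.ncard := by
  have h : {x : Fin 24 → ℤ | x ⬝ᵥ (B *ᵥ x) = 2 * (k : ℤ)} = {x | (qf B x).toNat / 2 = k} := by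
    ext x
    simp only [Set.mem_ofPred_eq]
    have h1 := qf_eq hB x
    have h2 : x ⬝ᵥ (B *ᵥ x) = qf B x := rfl
    rw [h2]
    omega
  rw [h]
  rfl

theorem counts {B : Matrix (Fin 24) (Fin 24) ℤ} (hsymm : B.IsSymm) (hpos : ∀ x : Fin 24 → ℤ, x ≠ 0 → 0 < x ⬝ᵥ (B *ᵥ x))
    (heven : ∀ x : Fin 24 → ℤ, (2 : ℤ) ∣ x ⬝ᵥ (B *ᵥ x)) (hdet : B.det = 1) (h2 : ∀ x : Fin 24 → ℤ, x ⬝ᵥ (B *ᵥ x) ≠ 2) :
    {x : Fin 24 → ℤ | x ⬝ᵥ (B *ᵥ x) = 4}.ncard = 196560 ∧ {x : Fin 24 → ℤ | x ⬝ᵥ (B *ᵥ x) = 6}.ncard = 16773120 ∧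
      {x : Fin 24 → ℤ | x ⬝ᵥ (B *ᵥ x) = 8}.ncard = 398034000 := by
  have hB := eu_of hsymm hpos heven hdet
  have h0 : cnt B 0 = 1 := by
    rw [cnt_eq hB]
    have : {x : Fin 24 → ℤ | x ⬝ᵥ (B *ᵥ x) = 2 * ((0 : ℕ) : ℤ)} = {0} := by
      ext x
      simp only [Set.mem_ofPred_eq, Set.mem_singleton_iff]
      constructor
      · intro h
        by_contra hx
        have := hpos x hx
        rw [h] at this
        simp at this
      · rintro rfl; simp
    rw [this, Set.ncard_singleton]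
  have h1 : cnt B 1 = 0 := by
    rw [cnt_eq hB]
    have : {x : Fin 24 → ℤ | x ⬝ᵥ (B *ᵥ x) = 2 * ((1 : ℕ) : ℤ)} = ∅ := by
      ext x
      simp only [Set.mem_ofPred_eq, Set.mem_empty_iff_false, iff_false]
      exact h2 x
    rw [this, Set.ncard_empty]
  obtain ⟨c2, c3, c4⟩ := cnt_values hB h0 h1
  rw [cnt_eq hB] at c2 c3 c4
  exact ⟨c2, c3, c4⟩

end Cfsg.Agent.Theta
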