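import Cfsg.Agent.Theta.Modular

/-!
# Counting vectors of an even unimodular rootless lattice of rank 24
-/

set_option autoImplicit false

namespace Cfsg.Agent.Theta

open Complex ModularForm MatrixGroups
open scoped Manifold
open UpperHalfPlane hiding I

variable {B : Matrix (Fin 24) (Fin 24) ℤ}

/-- the theta series on the upper half plane -/
noncomputable def thetaH (B : Matrix (Fin 24) (Fin 24) ℤ) (z : ℍ) : ℂ := theta B (z : ℂ)

set_option backward.isDefEq.respectTransparency.types false in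
theorem thetaH_S (hB : EU B) : (thetaH B ∣[(12 : ℤ)] ModularGroup.S) = thetaH B := by
  ext z
  suffices theta B (-(↑z)⁻¹) * ((z : ℂ) ^ 12)⁻¹ = theta B z by
    rw [SL_slash_apply, UpperHalfPlane.modular_S_smul]
    simpa [denom, ModularGroup.S, thetaH]
  have h := theta_S hB z.im_pos
  have e : (-1 : ℂ) / (z : ℂ) = -(z : ℂ)⁻¹ := by rw [neg_div, one_div]
  rw [e] at h
  have hz : (z : ℂ) ≠ 0 := z.ne_zero
  rw [h]
  field_simp

set_option backward.isDefEq.respectTransparency.types false in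
theorem thetaH_T (hB : EU B) : (thetaH B ∣[(12 : ℤ)] ModularGroup.T) = thetaH B := by
  ext z
  rw [SL_slash_apply, denom, modular_T_smul, ModularGroup.T]
  have h := theta_T hB (z : ℂ)
  simp [thetaH]
  rw [add_comm]
  exact h

theorem thetaH_holo (hB : EU B) : MDiff (thetaH B) := by
  rw [UpperHalfPlane.mdifferentiable_iff]
  refine (theta_diff hB).congr (fun z hz => ?_)
  simp [thetaH, ofComplex_apply_of_im_pos hz]

/-- number of vectors of norm `2 k` -/
noncomputable def cnt (B : Matrix (Fin 24) (Fin 24) ℤ) (k : ℕ) : ℕ := Nat.card {x : Fin 24 → ℤ // (qf B x).toNat / 2 = k}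

theorem qf_nonneg (hB : EU B) (x : Fin 24 → ℤ) : 0 ≤ qf B x := by
  have hq : 0 ≤ ((qf B x : ℤ) : ℝ) := by
    rw [← QF_map]
    by_cases h0 : x = 0
    · subst h0; simp [QF]
    · apply (hB.pos.2 _ _).le
      intro h; apply h0; funext i
      have := congrFun h i
      simpa using this
  exact_mod_cast hq

theorem qf_eq (hB : EU B) (x : Fin 24 → ℤ) : qf B x = 2 * (((qf B x).toNat / 2 : ℕ) : ℤ) := by
  have h1 := qf_nonneg hB x
  have h2 : (2 : ℤ) ∣ qf B x := hB.even x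
  omega

theorem theta_hasSum (hB : EU B) (z : ℍ) :
    HasSum (fun m : ℕ => (cnt B m : ℂ) • Function.Periodic.qParam 1 (z : ℂ) ^ m) (thetaH B z) := by
  have h1 : HasSum (fun x : Fin 24 → ℤ => cexp (Real.pi * I * (z : ℂ) * ((qf B x : ℤ) : ℂ))) (thetaH B z) :=
    (summable_theta hB z.im_pos).hasSum
  have h2 := h1.tsum_fiberwise (fun x => (qf B x).toNat / 2)
  have h3 : ∀ m : ℕ, ∑' b : (fun x => (qf B x).toNat / 2) ⁻¹' {m}, cexp (Real.pi * I * (z : ℂ) * ((qf B b : ℤ) : ℂ)) =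
      (cnt B m : ℂ) • Function.Periodic.qParam 1 (z : ℂ) ^ m := by
    intro m
    have h4 : ∀ b : (fun x => (qf B x).toNat / 2) ⁻¹' {m}, cexp (Real.pi * I * (z : ℂ) * ((qf B b : ℤ) : ℂ)) =
        Function.Periodic.qParam 1 (z : ℂ) ^ m := by
      rintro ⟨b, hb⟩
      have hb' : (qf B b).toNat / 2 = m := hb
      show cexp (Real.pi * I * (z : ℂ) * ((qf B b : ℤ) : ℂ)) = _
      rw [qf_eq hB b, hb', Function.Periodic.qParam, ← Complex.exp_nat_mul]
      congr 1
      push_cast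
      ring
    rw [tsum_congr h4, tsum_const, nsmul_eq_mul, smul_eq_mul]
    rfl
  exact h2.congr_fun (fun m => (h3 m).symm)

/-- the theta series as a modular form -/
noncomputable def thetaForm (hB : EU B) : ModularForm 𝒮ℒ 12 where
  toFun := thetaH B
  slash_action_eq' A hA := by
    obtain ⟨A, rfl⟩ := hA
    exact SlashInvariantForm.slash_action_generators_SL2Z (thetaH_S hB) (thetaH_T hB) A
  holo' := thetaH_holo hB
  bdd_at_cusps' hc := by
    rw [Subgroup.IsArithmetic.isCusp_iff_isCusp_SL2Z] at hc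
    rw [OnePoint.isBoundedAt_iff_forall_SL2Z hc]
    intro γ _
    rw [SlashInvariantForm.slash_action_generators_SL2Z (thetaH_S hB) (thetaH_T hB)]
    exact isBoundedAtImInfty_of_hasSum_qExpansion one_pos (theta_hasSum hB)

theorem thetaForm_coeff (hB : EU B) (m : ℕ) : (qExpansion 1 (thetaForm hB)).coeff m = (cnt B m : ℂ) :=
  (ModularFormClass.qExpansion_coeff_unique one_pos one_mem_strictPeriods_SL (f := thetaForm hB)
    (theta_hasSum hB) m).symm

open EisensteinSeries ArithmeticFunction in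
theorem E4_coeffs : (qExpansion 1 E₄).coeff 0 = 1 ∧ (qExpansion 1 E₄).coeff 1 = 240 ∧ (qExpansion 1 E₄).coeff 2 = 2160 ∧
    (qExpansion 1 E₄).coeff 3 = 6720 ∧ (qExpansion 1 E₄).coeff 4 = 17520 := by
  have h2 : ArithmeticFunction.sigma 3 2 = 9 := by decide +kernel
  have h3 : ArithmeticFunction.sigma 3 3 = 28 := by decide +kernel
  have h4 : ArithmeticFunction.sigma 3 4 = 73 := by decide +kernel
  refine ⟨?_, ?_, ?_, ?_, ?_⟩ <;>
    norm_num [E_qExpansion_coeff _ ⟨2, rfl⟩, show bernoulli 4 = -1 / 30 by decide +kernel, h2, h3, h4]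

open EisensteinSeries ArithmeticFunction in
theorem E6_coeffs : (qExpansion 1 E₆).coeff 0 = 1 ∧ (qExpansion 1 E₆).coeff 1 = -504 ∧ (qExpansion 1 E₆).coeff 2 = -16632 ∧
    (qExpansion 1 E₆).coeff 3 = -122976 ∧ (qExpansion 1 E₆).coeff 4 = -532728 := by
  have h2 : ArithmeticFunction.sigma 5 2 = 33 := by decide +kernel
  have h3 : ArithmeticFunction.sigma 5 3 = 244 := by decide +kernel
  have h4 : ArithmeticFunction.sigma 5 4 = 1057 := by decide +kernel
  refine ⟨?_, ?_, ?_, ?_, ?_⟩ <;>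
    norm_num [E_qExpansion_coeff _ ⟨3, rfl⟩, show bernoulli 6 = 1 / 42 by decide +kernel, h2, h3, h4]

/-- `E₄³` -/
noncomputable def e4c : ModularForm 𝒮ℒ 12 := ModularForm.mcast (by decide) (E₄.pow 3)
/-- `E₆²` -/
noncomputable def e6s : ModularForm 𝒮ℒ 12 := ModularForm.mcast (by decide) (E₆.pow 2)

theorem q_e4c : qExpansion 1 e4c = qExpansion 1 E₄ * qExpansion 1 E₄ * qExpansion 1 E₄ := by
  rw [e4c, coe_mcast, ModularForm.qExpansion_pow one_pos one_mem_strictPeriods_SL, pow_succ, sq]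

theorem q_e6s : qExpansion 1 e6s = qExpansion 1 E₆ * qExpansion 1 E₆ := by
  rw [e6s, coe_mcast, ModularForm.qExpansion_pow one_pos one_mem_strictPeriods_SL, sq]

/-- the difference with the right combination of Eisenstein series -/
noncomputable def diffForm (hB : EU B) : ModularForm 𝒮ℒ 12 :=
  thetaForm hB - ((7 / 12 : ℂ) • e4c + (5 / 12 : ℂ) • e6s)

theorem diffForm_q (hB : EU B) : qExpansion 1 (diffForm hB) = qExpansion 1 (thetaForm hB) -
    ((7 / 12 : ℂ) • (qExpansion 1 E₄ * qExpansion 1 E₄ * qExpansion 1 E₄) +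
      (5 / 12 : ℂ) • (qExpansion 1 E₆ * qExpansion 1 E₆)) := by
  have h1 : (⇑(diffForm hB) : ℍ → ℂ) = ⇑(thetaForm hB) - ⇑((7 / 12 : ℂ) • e4c + (5 / 12 : ℂ) • e6s) := FunLike.coe_sub _ _
  have h2 : (⇑((7 / 12 : ℂ) • e4c + (5 / 12 : ℂ) • e6s) : ℍ → ℂ) = ⇑((7 / 12 : ℂ) • e4c) + ⇑((5 / 12 : ℂ) • e6s) := FunLike.coe_add _ _
  have h3 : (⇑((7 / 12 : ℂ) • e4c) : ℍ → ℂ) = (7 / 12 : ℂ) • ⇑e4c := FunLike.coe_smul _ _
  have h4 : (⇑((5 / 12 : ℂ) • e6s) : ℍ → ℂ) = (5 / 12 : ℂ) • ⇑e6s := FunLike.coe_smul _ _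
  rw [h1, ModularForm.qExpansion_sub one_pos one_mem_strictPeriods_SL, h2,
    ModularForm.qExpansion_add one_pos one_mem_strictPeriods_SL, h3, h4,
    ModularForm.qExpansion_smul one_pos one_mem_strictPeriods_SL,
    ModularForm.qExpansion_smul one_pos one_mem_strictPeriods_SL, q_e4c, q_e6s]

/-- the coefficients of `7/12 a³ + 5/12 b²` -/
theorem combo_coeffs {a b : PowerSeries ℂ}
    (ha : a.coeff 0 = 1 ∧ a.coeff 1 = 240 ∧ a.coeff 2 = 2160 ∧ a.coeff 3 = 6720 ∧ a.coeff 4 = 17520)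
    (hb : b.coeff 0 = 1 ∧ b.coeff 1 = -504 ∧ b.coeff 2 = -16632 ∧ b.coeff 3 = -122976 ∧ b.coeff 4 = -532728) :
    let p := (7 / 12 : ℂ) • (a * a * a) + (5 / 12 : ℂ) • (b * b)
    p.coeff 0 = 1 ∧ p.coeff 1 = 0 ∧ p.coeff 2 = 196560 ∧ p.coeff 3 = 16773120 ∧ p.coeff 4 = 398034000 := by
  obtain ⟨a0, a1, a2, a3, a4⟩ := ha
  obtain ⟨b0, b1, b2, b3, b4⟩ := hb
  intro p
  refine ⟨?_, ?_, ?_, ?_, ?_⟩ <;>
    norm_num [p, PowerSeries.coeff_mul, Finset.Nat.antidiagonal_succ, a0, a1, a2, a3, a4, b0, b1, b2, b3, b4,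
      -PowerSeries.coeff_zero_eq_constantCoeff]

theorem cnt_values (hB : EU B) (h0 : cnt B 0 = 1) (h1 : cnt B 1 = 0) :
    cnt B 2 = 196560 ∧ cnt B 3 = 16773120 ∧ cnt B 4 = 398034000 := by
  obtain ⟨c0, c1, c2, c3, c4⟩ := combo_coeffs E4_coeffs E6_coeffs
  have hq := diffForm_q hB
  have hz : diffForm hB = 0 := by
    apply ModularForm.sturm_bound_levelOne_nat (k := 12)
    have h2 : ((2 : ℕ) : ℕ∞) ≤ (qExpansion 1 (diffForm hB)).order := by
      apply PowerSeries.nat_le_order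
      intro i hi
      rw [hq, map_sub, thetaForm_coeff]
      interval_cases i
      · rw [c0, h0]; norm_num
      · rw [c1, h1]; norm_num
    refine lt_of_lt_of_le ?_ h2
    norm_num
  have hz' : qExpansion 1 (diffForm hB) = 0 :=
    (ModularForm.qExpansion_eq_zero_iff one_pos one_mem_strictPeriods_SL _).2 hz
  rw [hz'] at hq
  have key : ∀ m, (cnt B m : ℂ) = ((7 / 12 : ℂ) • (qExpansion 1 E₄ * qExpansion 1 E₄ * qExpansion 1 E₄) +
      (5 / 12 : ℂ) • (qExpansion 1 E₆ * qExpansion 1 E₆)).coeff m := by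
    intro m
    have := congrArg (fun p : PowerSeries ℂ => p.coeff m) hq
    simp only [map_zero, map_sub, thetaForm_coeff] at this
    exact sub_eq_zero.1 this.symm
  refine ⟨?_, ?_, ?_⟩
  · have := key 2; rw [c2] at this; exact_mod_cast this
  · have := key 3; rw [c3] at this; exact_mod_cast this
  · have := key 4; rw [c4] at this; exact_mod_cast this

end Cfsg.Agent.Theta
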