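import Cfsg.Agent.Theta.Poisson

/-!
# The theta series of an even unimodular lattice of rank 24 is a modular form of weight 12
-/

set_option autoImplicit false

namespace Cfsg.Agent.Theta

open Complex
open UpperHalfPlane hiding I

/-! ### The constant -/

theorem mul_real_cpow {x : ℂ} (hx : x ≠ 0) {r : ℝ} (hr : 0 < r) (w : ℂ) : (x * (r : ℂ)) ^ w = x ^ w * (r : ℂ) ^ w := by
  have hr' : (r : ℂ) ≠ 0 := by exact_mod_cast hr.ne'
  rw [cpow_def_of_ne_zero (mul_ne_zero hx hr'), cpow_def_of_ne_zero hx, cpow_def_of_ne_zero hr',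
    log_mul_ofReal r hr x hx, ← Complex.exp_add, ← ofReal_log hr.le]
  congr 1
  ring

theorem cst_eq (n : ℕ) : ∀ (B : Matrix (Fin n) (Fin n) ℝ), PD B → ∃ K : ℝ, 0 < K ∧ ∀ τ : ℂ, 0 < τ.im →
    cst n B τ = (K : ℂ) * (1 / (-I * τ) ^ (1 / 2 : ℂ)) ^ n := by
  induction n with
  | zero => intro B _; exact ⟨1, one_pos, fun τ _ => by simp [cst]⟩
  | succ n ih =>
    intro B hB
    obtain ⟨K, hK, h⟩ := ih (sch B) hB.sch
    have hb := hB.pos
    refine ⟨(B 0 0 ^ (1 / 2 : ℝ))⁻¹ * K, by positivity, fun τ hτ => ?_⟩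
    have hτ0 : -I * τ ≠ 0 := by
      apply mul_ne_zero (neg_ne_zero.2 I_ne_zero)
      rintro rfl; simp at hτ
    rw [cst, h τ hτ, mul_real_cpow hτ0 hb, pow_succ]
    have e : ((B 0 0 : ℝ) : ℂ) ^ (1 / 2 : ℂ) = ((B 0 0 ^ (1 / 2 : ℝ) : ℝ) : ℂ) := by
      rw [ofReal_cpow hb.le]; norm_num
    rw [e]
    push_cast
    rw [one_div, mul_inv, one_div]
    ring

/-! ### The lattice -/

/-- even unimodular -/
structure EU (B : Matrix (Fin 24) (Fin 24) ℤ) : Prop where
  symm : ∀ i j, B i j = B j i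
  pos : PD (B.map (Int.cast : ℤ → ℝ))
  even : ∀ x : Fin 24 → ℤ, (2 : ℤ) ∣ x ⬝ᵥ (B.mulVec x)
  det : IsUnit B.det

/-- the quadratic form -/
def qf (B : Matrix (Fin 24) (Fin 24) ℤ) (x : Fin 24 → ℤ) : ℤ := x ⬝ᵥ (B.mulVec x)

theorem QF_map (B : Matrix (Fin 24) (Fin 24) ℤ) (x : Fin 24 → ℤ) :
    QF (B.map (Int.cast : ℤ → ℝ)) (fun i => (x i : ℝ)) = ((qf B x : ℤ) : ℝ) := by
  unfold QF qf
  simp only [dotProduct, Matrix.mulVec, Matrix.map_apply]
  push_cast
  apply Finset.sum_congr rfl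
  intro i _
  rw [Finset.mul_sum]
  exact Finset.sum_congr rfl (fun j _ => by ring)

/-- the theta series -/
noncomputable def theta (B : Matrix (Fin 24) (Fin 24) ℤ) (τ : ℂ) : ℂ :=
  ∑' x : Fin 24 → ℤ, cexp (Real.pi * I * τ * ((qf B x : ℤ) : ℂ))

variable {B : Matrix (Fin 24) (Fin 24) ℤ}

/-- `x ↦ -B x` -/
noncomputable def negB (h : IsUnit B.det) : (Fin 24 → ℤ) ≃ (Fin 24 → ℤ) where
  toFun x := -(B.mulVec x)
  invFun y := -(B⁻¹.mulVec y)
  left_inv x := by
    show -(B⁻¹.mulVec (-(B.mulVec x))) = x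
    rw [Matrix.mulVec_neg, Matrix.mulVec_mulVec, Matrix.nonsing_inv_mul B h, Matrix.one_mulVec, neg_neg]
  right_inv y := by
    show -(B.mulVec (-(B⁻¹.mulVec y))) = y
    rw [Matrix.mulVec_neg, Matrix.mulVec_mulVec, Matrix.mul_nonsing_inv B h, Matrix.one_mulVec, neg_neg]

theorem theta_S_aux (hB : EU B) : ∃ K : ℝ, 0 < K ∧ ∀ τ : ℂ, 0 < τ.im →
    theta B τ = (K : ℂ) * (τ ^ 12)⁻¹ * theta B (-1 / τ) := by
  obtain ⟨K, hK, hcst⟩ := cst_eq 24 _ hB.pos
  refine ⟨K, hK, fun τ hτ => ?_⟩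
  have h := theta_transform 24 _ hB.pos τ hτ 0
  have e1 : theta B τ = ∑' x : Fin 24 → ℤ, cexp (Real.pi * I * τ * ((QF (B.map (Int.cast : ℤ → ℝ)) (fun i => (x i : ℝ)) : ℝ) : ℂ) +
      2 * Real.pi * I * ((∑ i, (x i : ℝ) * (0 : Fin 24 → ℝ) i : ℝ) : ℂ)) := by
    unfold theta
    apply tsum_congr
    intro x
    rw [QF_map]
    simp
  rw [e1, h, hcst τ hτ]
  have e2 : ∑' m : Fin 24 → ℤ, cexp (-Real.pi * I / τ * ((dual 24 (B.map (Int.cast : ℤ → ℝ)) (fun i => (0 : Fin 24 → ℝ) i - (m i : ℝ)) : ℝ) : ℂ)) =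
      theta B (-1 / τ) := by
    rw [← Equiv.tsum_eq (negB hB.det)]
    unfold theta
    apply tsum_congr
    intro x
    have e3 : (fun i => (0 : Fin 24 → ℝ) i - ((negB hB.det x i : ℤ) : ℝ)) =
        (fun i => ∑ j, (B.map (Int.cast : ℤ → ℝ)) i j * (x j : ℝ)) := by
      funext i
      have : negB hB.det x i = -(B.mulVec x i) := rfl
      rw [this]
      simp only [Pi.zero_apply, Matrix.mulVec, dotProduct, Matrix.map_apply]
      push_cast
      ring
    rw [e3, dual_mulVec 24 _ hB.pos, QF_map]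
    congr 1
    push_cast
    ring
  rw [e2]
  congr 2
  rw [div_pow, one_pow, ← cpow_nat_mul]
  have e4 : ((24 : ℕ) : ℂ) * (1 / 2 : ℂ) = ((12 : ℕ) : ℂ) := by norm_num
  rw [e4, cpow_natCast, mul_pow]
  have e5 : (-I) ^ 12 = 1 := by
    rw [show (12 : ℕ) = 4 * 3 by norm_num, pow_mul, neg_pow, I_pow_four]; norm_num
  rw [e5, one_mul, one_div]

theorem summable_real (hB : EU B) {a : ℝ} (ha : 0 < a) : Summable (fun x : Fin 24 → ℤ => Real.exp (-(a * ((qf B x : ℤ) : ℝ)))) := by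
  obtain ⟨C, -, hC⟩ := primal_bound 24 _ hB.pos a ha
  have := (hC 0).1
  simp only [Pi.zero_apply, add_zero] at this
  exact this.congr (fun x => by rw [QF_map])

theorem norm_term (τ : ℂ) (q : ℝ) : ‖cexp (Real.pi * I * τ * (q : ℂ))‖ = Real.exp (-((Real.pi * τ.im) * q)) := by
  have := norm_main τ q 0
  rwa [ofReal_zero, mul_zero, add_zero] at this

theorem summable_theta (hB : EU B) {τ : ℂ} (hτ : 0 < τ.im) :
    Summable (fun x : Fin 24 → ℤ => cexp (Real.pi * I * τ * ((qf B x : ℤ) : ℂ))) := by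
  apply Summable.of_norm
  refine (summable_real hB (show 0 < Real.pi * τ.im by positivity)).congr (fun x => ?_)
  rw [← norm_term τ]
  norm_cast

theorem theta_I_ne (hB : EU B) : theta B I ≠ 0 := by
  have h1 : theta B I = ((∑' x : Fin 24 → ℤ, Real.exp (-(Real.pi * ((qf B x : ℤ) : ℝ))) : ℝ) : ℂ) := by
    unfold theta
    rw [ofReal_tsum]
    apply tsum_congr
    intro x
    rw [ofReal_exp]
    congr 1
    push_cast
    rw [mul_assoc (Real.pi : ℂ) I I, I_mul_I]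
    ring
  rw [h1]
  have h2 : 0 < ∑' x : Fin 24 → ℤ, Real.exp (-(Real.pi * ((qf B x : ℤ) : ℝ))) :=
    (summable_real hB Real.pi_pos).tsum_pos (fun x => (Real.exp_pos _).le) 0 (Real.exp_pos _)
  exact_mod_cast h2.ne'

theorem theta_S (hB : EU B) {τ : ℂ} (hτ : 0 < τ.im) : theta B (-1 / τ) = τ ^ 12 * theta B τ := by
  obtain ⟨K, hK, h⟩ := theta_S_aux hB
  have h1 := h I (by simp)
  have e1 : (-1 : ℂ) / I = I := by
    rw [div_eq_iff I_ne_zero, I_mul_I]
  have e2 : (I : ℂ) ^ 12 = 1 := by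
    rw [show (12 : ℕ) = 4 * 3 by norm_num, pow_mul, I_pow_four, one_pow]
  rw [e1, e2, inv_one, mul_one] at h1
  have hK1 : (K : ℂ) = 1 := by
    have := theta_I_ne hB
    have h2 : (1 : ℂ) * theta B I = K * theta B I := by rw [one_mul]; exact h1
    exact (mul_right_cancel₀ this h2).symm
  have h3 := h τ hτ
  have hτ0 : τ ≠ 0 := by rintro rfl; simp at hτ
  rw [hK1, one_mul] at h3
  rw [h3, ← mul_assoc, mul_inv_cancel₀ (pow_ne_zero _ hτ0), one_mul]

theorem theta_T (hB : EU B) (τ : ℂ) : theta B (τ + 1) = theta B τ := by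
  unfold theta
  apply tsum_congr
  intro x
  obtain ⟨k, hk⟩ := hB.even x
  have hk' : qf B x = 2 * k := hk
  rw [hk']
  have : Real.pi * I * (τ + 1) * ((2 * k : ℤ) : ℂ) = Real.pi * I * τ * ((2 * k : ℤ) : ℂ) + k * (2 * Real.pi * I) := by
    push_cast; ring
  rw [this, Complex.exp_add, exp_int_mul_two_pi_mul_I, mul_one]

theorem theta_diff (hB : EU B) : DifferentiableOn ℂ (theta B) {z | 0 < z.im} := by
  intro z hz
  have hz' : 0 < z.im := hz
  have hU : IsOpen {w : ℂ | z.im / 2 < w.im} := isOpen_lt continuous_const continuous_im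
  have h1 : DifferentiableOn ℂ (fun w : ℂ => ∑' x : Fin 24 → ℤ, cexp (Real.pi * I * w * ((qf B x : ℤ) : ℂ))) {w : ℂ | z.im / 2 < w.im} := by
    apply differentiableOn_tsum_of_summable_norm (summable_real hB (show 0 < Real.pi * (z.im / 2) by positivity)) _ hU
    · intro x w hw
      have e : cexp (Real.pi * I * w * ((qf B x : ℤ) : ℂ)) = cexp (Real.pi * I * w * (((qf B x : ℤ) : ℝ) : ℂ)) := by norm_cast
      rw [e, norm_term]
      apply Real.exp_le_exp.2
      have hw' : z.im / 2 < w.im := hw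
      have hq : 0 ≤ ((qf B x : ℤ) : ℝ) := by
        rw [← QF_map]
        by_cases h0 : x = 0
        · subst h0; simp [QF]
        · apply (hB.pos.2 _ _).le
          intro h; apply h0; funext i
          have := congrFun h i
          simpa using this
      have : Real.pi * (z.im / 2) * ((qf B x : ℤ) : ℝ) ≤ Real.pi * w.im * ((qf B x : ℤ) : ℝ) := by
        apply mul_le_mul_of_nonneg_right _ hq
        exact mul_le_mul_of_nonneg_left hw'.le Real.pi_pos.le
      linarith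
    · intro x
      fun_prop
  exact ((h1 z (by show z.im / 2 < z.im; linarith)).differentiableAt (hU.mem_nhds (by show z.im / 2 < z.im; linarith))).differentiableWithinAt

end Cfsg.Agent.Theta
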