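import Mathlib

/-!
# Poisson summation for positive definite quadratic forms

`theta_transform`: `∑_{x ∈ ℤⁿ} exp(π i τ Q(x) + 2 π i x·z) = cst · ∑_{m ∈ ℤⁿ} exp(-π i/τ · Q*(z - m))`,
by induction on `n` (completing the square and the one-dimensional Poisson summation formula).
-/

set_option autoImplicit false

namespace Cfsg.Agent.Theta

open Complex

/-! ### Real Gaussian sums -/

theorem gauss_aux {a : ℝ} (ha : 0 < a) : Summable (fun n : ℤ => Real.exp (-(a * (n : ℝ) ^ 2))) := by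
  have hτ : 0 < (I * ((a / Real.pi : ℝ) : ℂ)).im := by
    simp only [mul_im, I_re, I_im, ofReal_re, ofReal_im, zero_mul, one_mul, zero_add]
    positivity
  have h := ((summable_jacobiTheta₂_term_iff 0 _).2 hτ).norm
  refine h.congr (fun n => ?_)
  unfold jacobiTheta₂_term
  rw [Complex.norm_exp]
  congr 1
  have hpi : (Real.pi : ℂ) ≠ 0 := by exact_mod_cast Real.pi_ne_zero
  have : (2 * (Real.pi : ℂ) * I * (n : ℂ) * 0 + Real.pi * I * (n : ℂ) ^ 2 * (I * ((a / Real.pi : ℝ) : ℂ))) =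
      ((-(a * (n : ℝ) ^ 2) : ℝ) : ℂ) := by
    have e : Real.pi * I * (n : ℂ) ^ 2 * (I * ((a / Real.pi : ℝ) : ℂ)) = (I * I) * (n : ℂ) ^ 2 * (Real.pi * ((a / Real.pi : ℝ) : ℂ)) := by
      ring
    have e2 : Real.pi * ((a / Real.pi : ℝ) : ℂ) = (a : ℂ) := by
      push_cast
      field_simp
    rw [e, e2, I_mul_I]
    push_cast
    ring
  rw [this, ofReal_re]

theorem gauss_shift {a : ℝ} (ha : 0 < a) (s : ℝ) :
    Summable (fun n : ℤ => Real.exp (-(a * ((n : ℝ) + s) ^ 2))) ∧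
      ∑' n : ℤ, Real.exp (-(a * ((n : ℝ) + s) ^ 2)) ≤ ∑' n : ℤ, Real.exp (-((a / 4) * (n : ℝ) ^ 2)) := by
  set k : ℤ := round s with hk
  set f : ℝ := s - k with hf
  have hf2 : |f| ≤ 1 / 2 := abs_sub_round s
  have hb : ∀ n : ℤ, Real.exp (-(a * ((n : ℝ) + f) ^ 2)) ≤ Real.exp (-((a / 4) * (n : ℝ) ^ 2)) := by
    intro n
    apply Real.exp_le_exp.2
    have h1 : (n : ℝ) ^ 2 / 4 ≤ ((n : ℝ) + f) ^ 2 := by
      rw [abs_le] at hf2
      by_cases h0 : n = 0
      · subst h0; simp; positivity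
      · rcases lt_or_gt_of_ne h0 with h | h
        · have : (n : ℝ) ≤ -1 := by exact_mod_cast (by omega : n ≤ -1)
          nlinarith
        · have : (1 : ℝ) ≤ n := by exact_mod_cast (by omega : 1 ≤ n)
          nlinarith
    nlinarith
  have hs := gauss_aux (show 0 < a / 4 by positivity)
  have h1 : Summable (fun n : ℤ => Real.exp (-(a * ((n : ℝ) + f) ^ 2))) :=
    Summable.of_nonneg_of_le (fun n => (Real.exp_pos _).le) hb hs
  have e : (fun n : ℤ => Real.exp (-(a * ((n : ℝ) + s) ^ 2))) =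
      (fun n : ℤ => Real.exp (-(a * ((n : ℝ) + f) ^ 2))) ∘ (Equiv.addRight k) := by
    funext n
    simp only [Function.comp_apply, Equiv.coe_addRight, hf]
    push_cast
    ring_nf
  rw [e]
  refine ⟨(Equiv.addRight k).summable_iff.2 h1, ?_⟩
  have h2 := (Equiv.addRight k).tsum_eq (fun n : ℤ => Real.exp (-(a * ((n : ℝ) + f) ^ 2)))
  refine le_trans (le_of_eq h2) ?_
  exact Summable.tsum_le_tsum hb h1 hs

/-- sums over products -/
theorem prod_bound {α β : Type*} {g : α → ℝ} {h : α → β → ℝ} {C1 C2 : ℝ} (hg : ∀ u, 0 ≤ g u) (hh : ∀ u v, 0 ≤ h u v)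
    (hgs : Summable g) (hC2 : ∑' u, g u ≤ C2) (hhs : ∀ u, Summable (h u)) (hC1 : ∀ u, ∑' v, h u v ≤ C1) (h0 : 0 ≤ C1) :
    Summable (fun p : α × β => g p.1 * h p.1 p.2) ∧ ∑' p : α × β, g p.1 * h p.1 p.2 ≤ C2 * C1 := by
  have hin : ∀ u, Summable (fun v => g u * h u v) := fun u => (hhs u).mul_left _
  have hins : ∀ u, ∑' v, g u * h u v = g u * ∑' v, h u v := fun u => tsum_mul_left
  have hle : ∀ u, ∑' v, g u * h u v ≤ g u * C1 := by
    intro u; rw [hins]; exact mul_le_mul_of_nonneg_left (hC1 u) (hg u)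
  have hnn : ∀ u, 0 ≤ ∑' v, g u * h u v := fun u => tsum_nonneg (fun v => mul_nonneg (hg u) (hh u v))
  have hout : Summable (fun u => ∑' v, g u * h u v) :=
    Summable.of_nonneg_of_le hnn hle (hgs.mul_right C1)
  have hs : Summable (fun p : α × β => g p.1 * h p.1 p.2) := by
    rw [summable_prod_of_nonneg (fun p => mul_nonneg (hg p.1) (hh p.1 p.2))]
    exact ⟨hin, hout⟩
  refine ⟨hs, ?_⟩
  rw [hs.tsum_prod]
  calc ∑' u, ∑' v, g u * h u v ≤ ∑' u, g u * C1 := Summable.tsum_le_tsum hle hout (hgs.mul_right C1)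
    _ = (∑' u, g u) * C1 := tsum_mul_right
    _ ≤ C2 * C1 := mul_le_mul_of_nonneg_right hC2 h0

/-! ### Quadratic forms -/

/-- the quadratic form -/
def QF {n : ℕ} (B : Matrix (Fin n) (Fin n) ℝ) (x : Fin n → ℝ) : ℝ := ∑ i, ∑ j, x i * B i j * x j

/-- symmetric positive definite -/
def PD {n : ℕ} (B : Matrix (Fin n) (Fin n) ℝ) : Prop := (∀ i j, B i j = B j i) ∧ ∀ x, x ≠ 0 → 0 < QF B x

/-- Schur complement -/
noncomputable def sch {n : ℕ} (B : Matrix (Fin (n + 1)) (Fin (n + 1)) ℝ) : Matrix (Fin n) (Fin n) ℝ :=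
  fun i j => B i.succ j.succ - B 0 i.succ * B 0 j.succ / B 0 0

/-- linear form of the first row -/
def LF {n : ℕ} (B : Matrix (Fin (n + 1)) (Fin (n + 1)) ℝ) (x : Fin n → ℝ) : ℝ := ∑ j, B 0 j.succ * x j

theorem QF_succ {n : ℕ} {B : Matrix (Fin (n + 1)) (Fin (n + 1)) ℝ} (hB : ∀ i j, B i j = B j i) (hb : B 0 0 ≠ 0)
    (x : Fin (n + 1) → ℝ) : QF B x = B 0 0 * (x 0 + LF B (fun j => x j.succ) / B 0 0) ^ 2 +
      QF (sch B) (fun j => x j.succ) := by
  have h1 : QF B x = B 0 0 * x 0 ^ 2 + 2 * x 0 * LF B (fun j => x j.succ) +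
      ∑ i : Fin n, ∑ j : Fin n, x i.succ * B i.succ j.succ * x j.succ := by
    unfold QF LF
    rw [Fin.sum_univ_succ]
    simp only [Fin.sum_univ_succ (n := n)]
    rw [Finset.sum_add_distrib, Finset.mul_sum]
    have e : ∀ i : Fin n, x i.succ * B i.succ 0 * x 0 = x 0 * B 0 i.succ * x i.succ := by
      intro i; rw [hB i.succ 0]; ring
    simp only [e]
    have e2 : ∑ i : Fin n, 2 * x 0 * (B 0 i.succ * x i.succ) = ∑ i : Fin n, x 0 * B 0 i.succ * x i.succ +
        ∑ i : Fin n, x 0 * B 0 i.succ * x i.succ := by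
      rw [← Finset.sum_add_distrib]
      exact Finset.sum_congr rfl (fun i _ => by ring)
    rw [e2]
    ring
  have h2 : QF (sch B) (fun j => x j.succ) = ∑ i : Fin n, ∑ j : Fin n, x i.succ * B i.succ j.succ * x j.succ -
      LF B (fun j => x j.succ) ^ 2 / B 0 0 := by
    have e : LF B (fun j => x j.succ) ^ 2 / B 0 0 = ∑ i : Fin n, ∑ j : Fin n, x i.succ * (B 0 i.succ * B 0 j.succ / B 0 0) * x j.succ := by
      unfold LF
      rw [sq, Finset.sum_mul_sum, Finset.sum_div]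
      apply Finset.sum_congr rfl
      intro i _
      rw [Finset.sum_div]
      apply Finset.sum_congr rfl
      intro j _
      ring
    rw [e]
    unfold QF sch
    rw [← Finset.sum_sub_distrib]
    apply Finset.sum_congr rfl
    intro i _
    rw [← Finset.sum_sub_distrib]
    apply Finset.sum_congr rfl
    intro j _
    ring
  rw [h1, h2]
  field_simp
  ring

theorem PD.pos {n : ℕ} {B : Matrix (Fin (n + 1)) (Fin (n + 1)) ℝ} (h : PD B) : 0 < B 0 0 := by
  have h1 := h.2 (Pi.single 0 1) (by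
    intro h0
    have := congrFun h0 0
    simp at this)
  unfold QF at h1
  rw [Finset.sum_eq_single 0, Finset.sum_eq_single 0] at h1
  · simpa using h1
  · intro j _ hj; rw [Pi.single_eq_of_ne hj, mul_zero]
  · intro h0; exact absurd (Finset.mem_univ _) h0
  · intro i _ hi
    apply Finset.sum_eq_zero
    intro j _
    rw [Pi.single_eq_of_ne hi, zero_mul, zero_mul]
  · intro h0; exact absurd (Finset.mem_univ _) h0

theorem PD.sch {n : ℕ} {B : Matrix (Fin (n + 1)) (Fin (n + 1)) ℝ} (h : PD B) : PD (sch B) := by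
  have hb := h.pos
  refine ⟨fun i j => ?_, fun x hx => ?_⟩
  · unfold Theta.sch
    rw [h.1 i.succ j.succ]
    ring
  · have h1 := h.2 (Fin.cons (-(LF B x / B 0 0)) x) (by
      intro h0
      apply hx
      funext j
      have := congrFun h0 j.succ
      simpa using this)
    rw [QF_succ h.1 hb.ne'] at h1
    simpa using h1

/-- the dual quadratic form -/
noncomputable def dual : (n : ℕ) → Matrix (Fin n) (Fin n) ℝ → (Fin n → ℝ) → ℝ
  | 0, _, _ => 0
  | n + 1, B, y => y 0 ^ 2 / B 0 0 + dual n (sch B) (fun j => y j.succ - y 0 * B 0 j.succ / B 0 0)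

theorem dual_mulVec (n : ℕ) : ∀ (B : Matrix (Fin n) (Fin n) ℝ), PD B → ∀ x : Fin n → ℝ,
    dual n B (fun i => ∑ j, B i j * x j) = QF B x := by
  induction n with
  | zero => intro B _ x; simp [dual, QF]
  | succ n ih =>
    intro B hB x
    have hb := hB.pos
    rw [QF_succ hB.1 hb.ne', ← ih (sch B) hB.sch, dual]
    have e0 : ∑ j, B 0 j * x j = B 0 0 * x 0 + LF B (fun j => x j.succ) := by
      rw [Fin.sum_univ_succ]; rfl
    rw [e0]
    congr 1
    · field_simp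
    · congr 1
      funext i
      rw [Fin.sum_univ_succ]
      have e1 : ∑ j, sch B i j * x j.succ = ∑ j : Fin n, B i.succ j.succ * x j.succ -
          B 0 i.succ / B 0 0 * LF B (fun j => x j.succ) := by
        unfold sch LF
        rw [Finset.mul_sum, ← Finset.sum_sub_distrib]
        exact Finset.sum_congr rfl (fun j _ => by ring)
      rw [e1, hB.1 i.succ 0]
      field_simp
      ring

/-! ### Summability -/

theorem QF_zero (B : Matrix (Fin 0) (Fin 0) ℝ) (x : Fin 0 → ℝ) : QF B x = 0 := by simp [QF]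

theorem primal_bound (n : ℕ) : ∀ (B : Matrix (Fin n) (Fin n) ℝ), PD B → ∀ a : ℝ, 0 < a → ∃ C : ℝ, 0 ≤ C ∧ ∀ s : Fin n → ℝ,
    Summable (fun x : Fin n → ℤ => Real.exp (-(a * QF B (fun i => (x i : ℝ) + s i)))) ∧
      ∑' x : Fin n → ℤ, Real.exp (-(a * QF B (fun i => (x i : ℝ) + s i))) ≤ C := by
  induction n with
  | zero =>
    intro B _ a _
    refine ⟨1, zero_le_one, fun s => ⟨Summable.of_finite, ?_⟩⟩
    rw [tsum_fintype]
    simp [QF_zero]
  | succ n ih =>
    intro B hB a ha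
    have hb := hB.pos
    obtain ⟨C2, h20, hC2⟩ := ih (sch B) hB.sch a ha
    set C1 := ∑' n : ℤ, Real.exp (-((a * B 0 0 / 4) * (n : ℝ) ^ 2)) with hC1
    have h10 : 0 ≤ C1 := tsum_nonneg (fun n => (Real.exp_pos _).le)
    refine ⟨C2 * C1, mul_nonneg h20 h10, fun s => ?_⟩
    have key := prod_bound (α := Fin n → ℤ) (β := ℤ)
      (g := fun u => Real.exp (-(a * QF (sch B) (fun i => (u i : ℝ) + s i.succ))))
      (h := fun u v => Real.exp (-((a * B 0 0) * ((v : ℝ) + (s 0 + LF B (fun i => (u i : ℝ) + s i.succ) / B 0 0)) ^ 2)))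
      (fun u => (Real.exp_pos _).le) (fun u v => (Real.exp_pos _).le) (hC2 _).1 (hC2 _).2
      (fun u => (gauss_shift (by positivity) _).1) (fun u => (gauss_shift (by positivity) _).2) h10
    have e : ∀ p : (Fin n → ℤ) × ℤ, Real.exp (-(a * QF (sch B) (fun i => (p.1 i : ℝ) + s i.succ))) *
        Real.exp (-((a * B 0 0) * ((p.2 : ℝ) + (s 0 + LF B (fun i => (p.1 i : ℝ) + s i.succ) / B 0 0)) ^ 2)) =
        (fun x : Fin (n + 1) → ℤ => Real.exp (-(a * QF B (fun i => (x i : ℝ) + s i))))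
          (((Equiv.prodComm _ _).trans (Fin.consEquiv fun _ => ℤ)) p) := by
      intro p
      rw [← Real.exp_add]
      congr 1
      rw [QF_succ hB.1 hb.ne']
      simp only [Equiv.trans_apply, Equiv.prodComm_apply, Prod.swap, Fin.consEquiv_apply, Fin.cons_zero, Fin.cons_succ]
      ring
    have hs : Summable (fun p : (Fin n → ℤ) × ℤ => (fun x : Fin (n + 1) → ℤ => Real.exp (-(a * QF B (fun i => (x i : ℝ) + s i))))
          (((Equiv.prodComm _ _).trans (Fin.consEquiv fun _ => ℤ)) p)) := key.1.congr e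
    refine ⟨(Equiv.summable_iff _).1 hs, ?_⟩
    rw [← Equiv.tsum_eq ((Equiv.prodComm _ _).trans (Fin.consEquiv fun _ => ℤ)), ← tsum_congr e]
    exact key.2

theorem dual_bound (n : ℕ) : ∀ (B : Matrix (Fin n) (Fin n) ℝ), PD B → ∀ a : ℝ, 0 < a → ∃ C : ℝ, 0 ≤ C ∧ ∀ z : Fin n → ℝ,
    Summable (fun m : Fin n → ℤ => Real.exp (-(a * dual n B (fun i => z i - (m i : ℝ))))) ∧
      ∑' m : Fin n → ℤ, Real.exp (-(a * dual n B (fun i => z i - (m i : ℝ)))) ≤ C := by
  induction n with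
  | zero =>
    intro B _ a _
    refine ⟨1, zero_le_one, fun s => ⟨Summable.of_finite, ?_⟩⟩
    rw [tsum_fintype]
    simp [dual]
  | succ n ih =>
    intro B hB a ha
    have hb := hB.pos
    obtain ⟨C2, h20, hC2⟩ := ih (sch B) hB.sch a ha
    set C1 := ∑' n : ℤ, Real.exp (-((a / B 0 0 / 4) * (n : ℝ) ^ 2)) with hC1
    have h10 : 0 ≤ C1 := tsum_nonneg (fun n => (Real.exp_pos _).le)
    refine ⟨C1 * C2, mul_nonneg h10 h20, fun z => ?_⟩
    have key := prod_bound (α := ℤ) (β := Fin n → ℤ)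
      (g := fun u => Real.exp (-((a / B 0 0) * ((u : ℝ) + -z 0) ^ 2)))
      (h := fun u v => Real.exp (-(a * dual n (sch B) (fun i => (z i.succ - (z 0 - (u : ℝ)) * B 0 i.succ / B 0 0) - (v i : ℝ)))))
      (fun u => (Real.exp_pos _).le) (fun u v => (Real.exp_pos _).le)
      (gauss_shift (by positivity) _).1 (gauss_shift (by positivity) _).2
      (fun u => (hC2 _).1) (fun u => (hC2 _).2) h20
    have e : ∀ p : ℤ × (Fin n → ℤ), Real.exp (-((a / B 0 0) * ((p.1 : ℝ) + -z 0) ^ 2)) *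
        Real.exp (-(a * dual n (sch B) (fun i => (z i.succ - (z 0 - (p.1 : ℝ)) * B 0 i.succ / B 0 0) - (p.2 i : ℝ)))) =
        (fun m : Fin (n + 1) → ℤ => Real.exp (-(a * dual (n + 1) B (fun i => z i - (m i : ℝ)))))
          ((Fin.consEquiv fun _ => ℤ) p) := by
      intro p
      rw [← Real.exp_add]
      congr 1
      rw [dual]
      simp only [Fin.consEquiv_apply, Fin.cons_zero, Fin.cons_succ]
      have e1 : (fun i : Fin n => (z i.succ - (z 0 - (p.1 : ℝ)) * B 0 i.succ / B 0 0) - (p.2 i : ℝ)) =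
          (fun j : Fin n => z j.succ - (p.2 j : ℝ) - (z 0 - (p.1 : ℝ)) * B 0 j.succ / B 0 0) := by
        funext i; ring
      rw [e1]
      ring
    have hs : Summable (fun p : ℤ × (Fin n → ℤ) => (fun m : Fin (n + 1) → ℤ => Real.exp (-(a * dual (n + 1) B (fun i => z i - (m i : ℝ)))))
          ((Fin.consEquiv fun _ => ℤ) p)) := key.1.congr e
    refine ⟨(Equiv.summable_iff _).1 hs, ?_⟩
    rw [← Equiv.tsum_eq (Fin.consEquiv fun _ => ℤ), ← tsum_congr e]
    exact key.2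

/-! ### The transformation formula -/

/-- the constant -/
noncomputable def cst : (n : ℕ) → Matrix (Fin n) (Fin n) ℝ → ℂ → ℂ
  | 0, _, _ => 1
  | n + 1, B, τ => 1 / (-I * τ * (B 0 0 : ℝ)) ^ (1 / 2 : ℂ) * cst n (sch B) τ

theorem norm_main (τ : ℂ) (q r : ℝ) :
    ‖cexp (Real.pi * I * τ * (q : ℂ) + 2 * Real.pi * I * (r : ℂ))‖ = Real.exp (-((Real.pi * τ.im) * q)) := by
  rw [Complex.norm_exp]
  congr 1
  have e : (Real.pi * I * τ * (q : ℂ) + 2 * Real.pi * I * (r : ℂ)) = ((Real.pi * q : ℝ) : ℂ) * (I * τ) + ((2 * Real.pi * r : ℝ) : ℂ) * I := by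
    push_cast; ring
  rw [e, add_re, re_ofReal_mul, re_ofReal_mul, mul_re, I_re, I_im]
  ring

theorem norm_dual (τ : ℂ) (q : ℝ) :
    ‖cexp (-Real.pi * I / τ * (q : ℂ))‖ = Real.exp (-((Real.pi * (τ.im / normSq τ)) * q)) := by
  rw [Complex.norm_exp]
  congr 1
  have e : (-Real.pi * I / τ * (q : ℂ)) = ((-Real.pi * q : ℝ) : ℂ) * (I * τ⁻¹) := by
    push_cast
    rw [div_eq_mul_inv]
    ring
  rw [e, re_ofReal_mul, mul_re, I_re, I_im, inv_im]
  ring

theorem step_exp {τ : ℂ} (hτ : τ ≠ 0) {b : ℝ} (hb : b ≠ 0) (L q' x0 z0 r : ℝ) :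
    Real.pi * I * τ * ((b * (x0 + L / b) ^ 2 + q' : ℝ) : ℂ) + 2 * Real.pi * I * ((x0 * z0 + r : ℝ) : ℂ) =
      (Real.pi * I * τ * ((L ^ 2 / b + q' : ℝ) : ℂ) + 2 * Real.pi * I * (r : ℂ)) +
      (-Real.pi * (-I * τ * b) * (x0 : ℂ) ^ 2 + 2 * Real.pi * (I * (τ * L + z0)) * x0) := by
  have hb' : (b : ℂ) ≠ 0 := by exact_mod_cast hb
  push_cast
  field_simp
  ring

theorem step_exp2 {τ : ℂ} (hτ : τ ≠ 0) {b : ℝ} (hb : b ≠ 0) (L q' m0 z0 r : ℝ) :
    (Real.pi * I * τ * ((L ^ 2 / b + q' : ℝ) : ℂ) + 2 * Real.pi * I * (r : ℂ)) +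
      (-Real.pi / (-I * τ * b) * ((m0 : ℂ) + I * (I * (τ * L + z0))) ^ 2) =
    (-Real.pi * I / τ * (((z0 - m0) ^ 2 / b : ℝ) : ℂ)) +
      (Real.pi * I * τ * (q' : ℂ) + 2 * Real.pi * I * ((r - (z0 - m0) * L / b : ℝ) : ℂ)) := by
  have hb' : (b : ℂ) ≠ 0 := by exact_mod_cast hb
  have e1 : (m0 : ℂ) + I * (I * (τ * L + z0)) = m0 - τ * L - z0 := by
    rw [← mul_assoc, I_mul_I]; ring
  rw [e1]
  have e2 : (-Real.pi : ℂ) / (-I * τ * b) = -Real.pi * I / (τ * b) := by
    rw [div_eq_div_iff (by simp [hτ, hb', I_ne_zero]) (mul_ne_zero hτ hb')]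
    have : -(Real.pi : ℂ) * I * (-I * τ * b) = -Real.pi * (-(I * I)) * τ * b := by ring
    rw [this, I_mul_I]; ring
  rw [e2]
  push_cast
  field_simp
  ring

theorem tsum_cons {n : ℕ} {G : (Fin (n + 1) → ℤ) → ℂ} (h : Summable G) :
    ∑' m, G m = ∑' m0 : ℤ, ∑' m : Fin n → ℤ, G (Fin.cons m0 m) := by
  rw [← Equiv.tsum_eq (Fin.consEquiv fun _ => ℤ) G]
  exact Summable.tsum_prod ((Equiv.summable_iff (Fin.consEquiv fun _ => ℤ)).2 h)

theorem theta_transform (n : ℕ) : ∀ (B : Matrix (Fin n) (Fin n) ℝ), PD B → ∀ (τ : ℂ), 0 < τ.im → ∀ (z : Fin n → ℝ),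
    ∑' x : Fin n → ℤ, cexp (Real.pi * I * τ * ((QF B (fun i => (x i : ℝ)) : ℝ) : ℂ) +
      2 * Real.pi * I * ((∑ i, (x i : ℝ) * z i : ℝ) : ℂ)) =
    cst n B τ * ∑' m : Fin n → ℤ, cexp (-Real.pi * I / τ * ((dual n B (fun i => z i - (m i : ℝ)) : ℝ) : ℂ)) := by
  induction n with
  | zero =>
    intro B _ τ _ z
    rw [tsum_fintype, tsum_fintype]
    simp [QF_zero, dual, cst]
  | succ n ih =>
    intro B hB τ hτ z
    have hb := hB.pos
    have hτ0 : τ ≠ 0 := by rintro rfl; simp at hτ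
    have hB' := hB.sch
    set b := B 0 0 with hbd
    have ht2 : 0 < τ.im / normSq τ := div_pos hτ (normSq_pos.2 hτ0)
    -- summability of the three families
    obtain ⟨C, -, hC⟩ := primal_bound (n + 1) B hB (Real.pi * τ.im) (by positivity)
    have s1 : Summable (fun x : Fin (n + 1) → ℤ => cexp (Real.pi * I * τ * ((QF B (fun i => (x i : ℝ)) : ℝ) : ℂ) +
        2 * Real.pi * I * ((∑ i, (x i : ℝ) * z i : ℝ) : ℂ))) := by
      apply Summable.of_norm
      have := (hC 0).1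
      simp only [Pi.zero_apply, add_zero] at this
      exact this.congr (fun x => (norm_main τ _ _).symm)
    obtain ⟨C', -, hC'⟩ := primal_bound n (sch B) hB' (Real.pi * τ.im) (by positivity)
    set F2 : ℤ → (Fin n → ℤ) → ℂ := fun m0 x => cexp ((-Real.pi * I / τ * (((z 0 - m0) ^ 2 / b : ℝ) : ℂ)) +
      (Real.pi * I * τ * ((QF (sch B) (fun i => (x i : ℝ)) : ℝ) : ℂ) +
        2 * Real.pi * I * ((∑ i : Fin n, (x i : ℝ) * z i.succ - (z 0 - m0) * LF B (fun i => (x i : ℝ)) / b : ℝ) : ℂ))) with hF2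
    have s2 : Summable (Function.uncurry F2) := by
      apply Summable.of_norm
      have h1 := (gauss_shift (show 0 < Real.pi * (τ.im / normSq τ) / b by positivity) (-z 0)).1
      have h2 := (hC' 0).1
      simp only [Pi.zero_apply, add_zero] at h2
      refine (h1.mul_of_nonneg h2 (fun _ => (Real.exp_pos _).le) (fun _ => (Real.exp_pos _).le)).congr (fun p => ?_)
      simp only [Function.uncurry, hF2]
      rw [Complex.exp_add, norm_mul, norm_dual, norm_main]
      congr 2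
      ring
    obtain ⟨C3, -, hC3⟩ := dual_bound (n + 1) B hB (Real.pi * (τ.im / normSq τ)) (by positivity)
    have s3 : Summable (fun m : Fin (n + 1) → ℤ => cexp (-Real.pi * I / τ * ((dual (n + 1) B (fun i => z i - (m i : ℝ)) : ℝ) : ℂ))) := by
      apply Summable.of_norm
      exact (hC3 z).1.congr (fun x => (norm_dual τ _).symm)
    -- first sum
    have a1 : ∑' x : Fin (n + 1) → ℤ, cexp (Real.pi * I * τ * ((QF B (fun i => (x i : ℝ)) : ℝ) : ℂ) +
        2 * Real.pi * I * ((∑ i, (x i : ℝ) * z i : ℝ) : ℂ)) = ∑' x : Fin n → ℤ, ∑' x0 : ℤ,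
        cexp (Real.pi * I * τ * ((b * (x0 + LF B (fun i => (x i : ℝ)) / b) ^ 2 + QF (sch B) (fun i => (x i : ℝ)) : ℝ) : ℂ) +
        2 * Real.pi * I * ((x0 * z 0 + ∑ i : Fin n, (x i : ℝ) * z i.succ : ℝ) : ℂ)) := by
      rw [← Equiv.tsum_eq ((Equiv.prodComm _ _).trans (Fin.consEquiv fun _ => ℤ)), Summable.tsum_prod]
      · apply tsum_congr; intro x
        apply tsum_congr; intro x0
        simp only [Equiv.trans_apply, Equiv.prodComm_apply, Prod.swap, Fin.consEquiv_apply]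
        rw [QF_succ hB.1 hb.ne', Fin.sum_univ_succ]
        simp only [Fin.cons_zero, Fin.cons_succ]
        rw [hbd]
      · exact (Equiv.summable_iff _).2 s1
    have a2 : ∀ x : Fin n → ℤ, ∑' x0 : ℤ,
        cexp (Real.pi * I * τ * ((b * (x0 + LF B (fun i => (x i : ℝ)) / b) ^ 2 + QF (sch B) (fun i => (x i : ℝ)) : ℝ) : ℂ) +
        2 * Real.pi * I * ((x0 * z 0 + ∑ i : Fin n, (x i : ℝ) * z i.succ : ℝ) : ℂ)) =
        1 / (-I * τ * (b : ℝ)) ^ (1 / 2 : ℂ) * ∑' m0 : ℤ, F2 m0 x := by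
      intro x
      have ha : 0 < (-I * τ * (b : ℝ)).re := by
        rw [mul_comm, re_ofReal_mul]
        have : (-I * τ).re = τ.im := by simp
        rw [this]
        positivity
      have e1 : ∀ x0 : ℤ, cexp (Real.pi * I * τ * ((b * (x0 + LF B (fun i => (x i : ℝ)) / b) ^ 2 + QF (sch B) (fun i => (x i : ℝ)) : ℝ) : ℂ) +
        2 * Real.pi * I * ((x0 * z 0 + ∑ i : Fin n, (x i : ℝ) * z i.succ : ℝ) : ℂ)) =
        cexp (Real.pi * I * τ * ((LF B (fun i => (x i : ℝ)) ^ 2 / b + QF (sch B) (fun i => (x i : ℝ)) : ℝ) : ℂ) +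
          2 * Real.pi * I * ((∑ i : Fin n, (x i : ℝ) * z i.succ : ℝ) : ℂ)) *
        cexp (-Real.pi * (-I * τ * b) * (x0 : ℂ) ^ 2 + 2 * Real.pi * (I * (τ * LF B (fun i => (x i : ℝ)) + z 0)) * x0) := by
        intro x0
        rw [← Complex.exp_add, ← ofReal_intCast x0, ← step_exp hτ0 hb.ne']
      rw [tsum_congr e1, tsum_mul_left, Complex.tsum_exp_neg_quadratic ha, mul_left_comm, ← tsum_mul_left]
      congr 1
      apply tsum_congr
      intro m0
      rw [← Complex.exp_add, hF2]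
      simp only
      congr 1
      rw [← ofReal_intCast m0]
      exact step_exp2 hτ0 hb.ne' _ _ _ _ _
    -- inner sum over x
    have a3 : ∀ m0 : ℤ, ∑' x : Fin n → ℤ, F2 m0 x = cst n (sch B) τ * ∑' m : Fin n → ℤ,
        cexp (-Real.pi * I / τ * ((dual (n + 1) B (fun i => z i - ((Fin.cons m0 m : Fin (n + 1) → ℤ) i : ℝ)) : ℝ) : ℂ)) := by
      intro m0
      have e1 : ∀ x : Fin n → ℤ, F2 m0 x = cexp (-Real.pi * I / τ * (((z 0 - m0) ^ 2 / b : ℝ) : ℂ)) *
          cexp (Real.pi * I * τ * ((QF (sch B) (fun i => (x i : ℝ)) : ℝ) : ℂ) +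
            2 * Real.pi * I * ((∑ i, (x i : ℝ) * (z i.succ - (z 0 - m0) * B 0 i.succ / b) : ℝ) : ℂ)) := by
        intro x
        rw [← Complex.exp_add, hF2]
        simp only
        have e3 : ∑ i : Fin n, (x i : ℝ) * z i.succ - (z 0 - m0) * LF B (fun i => (x i : ℝ)) / b =
            ∑ i, (x i : ℝ) * (z i.succ - (z 0 - m0) * B 0 i.succ / b) := by
          unfold LF
          rw [Finset.mul_sum, Finset.sum_div, ← Finset.sum_sub_distrib]
          exact Finset.sum_congr rfl (fun i _ => by ring)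
        rw [e3]
      rw [tsum_congr e1, tsum_mul_left, ih (sch B) hB' τ hτ, mul_left_comm, ← tsum_mul_left]
      congr 1
      apply tsum_congr
      intro m
      rw [← Complex.exp_add]
      congr 1
      rw [dual]
      simp only [Fin.cons_zero, Fin.cons_succ]
      have e2 : (fun i : Fin n => (z i.succ - (z 0 - (m0 : ℝ)) * B 0 i.succ / b) - (m i : ℝ)) =
          (fun j : Fin n => z j.succ - (m j : ℝ) - (z 0 - (m0 : ℝ)) * B 0 j.succ / B 0 0) := by
        funext i; rw [hbd]; ring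
      rw [e2]
      push_cast
      ring
    rw [a1, tsum_congr a2, tsum_mul_left]
    have a4 : ∑' x : Fin n → ℤ, ∑' m0 : ℤ, F2 m0 x = ∑' m0 : ℤ, ∑' x : Fin n → ℤ, F2 m0 x := s2.tsum_comm
    rw [a4, tsum_congr a3, tsum_mul_left, ← mul_assoc, cst, tsum_cons s3]

end Cfsg.Agent.Theta
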